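import Mathlib.LinearAlgebra.Matrix.NonsingularInverse
import Mathlib.LinearAlgebra.Matrix.ToLin
import Mathlib.LinearAlgebra.Matrix.Rank
import Mathlib.LinearAlgebra.Finsupp.LinearCombination
import Mathlib.Algebra.Polynomial.Roots
import Mathlib.Algebra.MonoidAlgebra.Basic
import Mathlib.Analysis.Complex.Basic

/-!
Deformation of a Hecke algebra: the rank of the averaging map and the nullity of the commutator map
are compared at two parameters through nearby generic ones (owner: helper32).
-/

namespace Cfsg.Agent.HeckeDeform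

open Polynomial

variable {ι κ : Type*} [Fintype ι] [Fintype κ]

/-- The rank at a point is at most the rank at all but finitely many points. -/
theorem finite_rank_drop (M : Matrix ι κ ℂ[X]) (s : ℂ) :
    {t : ℂ | (M.map (eval t)).rank < (M.map (eval s)).rank}.Finite := by
  classical
  set f := (M.map (eval s)).mulVecLin
  obtain ⟨r, hr⟩ : ∃ r, r = (M.map (eval s)).rank := ⟨_, rfl⟩
  have b : Module.Basis (Fin r) ℂ (LinearMap.range f) :=
    (Module.finBasis ℂ (LinearMap.range f)).reindex (finCongr (by rw [hr]; rfl))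
  choose a ha using fun j : Fin r => (b j).2
  obtain ⟨g, hg⟩ := LinearMap.exists_extend (b.equivFun.toLinearMap)
  let A : Matrix κ (Fin r) ℂ := Matrix.of fun x j => a j x
  let B : Matrix (Fin r) ι ℂ := LinearMap.toMatrix' g
  have hBMA : B * M.map (eval s) * A = 1 := by
    ext i j
    have h1 : ((M.map (eval s)) * A).col j = (b j : ι → ℂ) := by
      rw [← ha j]
      rfl
    have h2 : g (b j : ι → ℂ) = b.equivFun (b j) := LinearMap.congr_fun hg (b j)
    rw [Matrix.mul_assoc]
    have h3 : (B * (M.map (eval s) * A)) i j = (B.mulVec (((M.map (eval s)) * A).col j)) i := rfl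
    rw [h3, h1, show B.mulVec (b j : ι → ℂ) = g (b j : ι → ℂ) from LinearMap.toMatrix'_mulVec g _, h2,
      Module.Basis.equivFun_apply, b.repr_self, Matrix.one_apply, Finsupp.single_apply]
    exact if_congr eq_comm rfl rfl
  let P : ℂ[X] := (B.map C * M * A.map C).det
  have hP : ∀ t, P.eval t = (B * M.map (eval t) * A).det := fun t => by
    rw [← coe_evalRingHom, RingHom.map_det, RingHom.mapMatrix_apply, Matrix.map_mul, Matrix.map_mul]
    congr 3 <;> ext <;> simp
  have hP0 : P ≠ 0 := fun h => by
    have := hP s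
    rw [h, hBMA, Matrix.det_one, eval_zero] at this
    exact zero_ne_one this
  refine (finite_setOfPred_isRoot hP0).subset fun t ht => ?_
  by_contra h
  have hu : IsUnit (B * M.map (eval t) * A) := by
    rw [Matrix.isUnit_iff_isUnit_det, ← hP, isUnit_iff_ne_zero]
    exact h
  have h1 := Matrix.rank_of_isUnit _ hu
  rw [Fintype.card_fin] at h1
  have h2 := (Matrix.rank_mul_le_left (B * M.map (eval t)) A).trans (Matrix.rank_mul_le_right B (M.map (eval t)))
  rw [h1, hr] at h2
  exact absurd ht (not_lt.2 h2)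

/-- Combinatorial data of a Hecke algebra. -/
structure Data (W : Type*) (l : ℕ) where
  s : Fin l → W
  wd : W → List (Fin l)
  asc : Fin l → W → Prop
  ln : W → ℕ
  N : ℕ

variable {W : Type*} [Group W] [Fintype W] [DecidableEq W] {l : ℕ} (d : Data W l)

open scoped Classical in
/-- Left multiplication by a generator. -/
noncomputable def Lmat (i : Fin l) : Matrix W W ℂ[X] :=
  Matrix.of fun u w =>
    if d.asc i w then (if u = d.s i * w then 1 else 0)
    else (if u = d.s i * w then X else 0) + (if u = w then X - 1 else 0)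

/-- Left multiplication by a basis element. -/
noncomputable def Pmat (v : W) : Matrix W W ℂ[X] := ((d.wd v).map (Lmat d)).prod

/-- The averaging map. -/
noncomputable def Cmat : Matrix W W ℂ[X] :=
  Matrix.of fun u a => ∑ v, X ^ (d.N - d.ln v) * ∑ b, Pmat d v b a * Pmat d b u v⁻¹

/-- The commutators with the generators. -/
noncomputable def Admat : Matrix (Fin l × W) W ℂ[X] :=
  Matrix.of fun p a => Lmat d p.1 p.2 a - Pmat d a p.2 (d.s p.1)

/-- A realisation at the parameter `t`. -/
structure Model (t : ℂ) (A : Type*) [Ring A] [Algebra ℂ A] where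
  T : W → A
  indep : LinearIndependent ℂ T
  one_mul : ∀ w, T 1 * T w = T w
  step_asc : ∀ i w, d.asc i w → T (d.s i) * T w = T (d.s i * w)
  step_desc : ∀ i w, ¬ d.asc i w →
    T (d.s i) * T w = t • T (d.s i * w) + (t - 1) • T w
  word : ∀ v, T v = ((d.wd v).map fun i => T (d.s i)).prod * T 1

namespace Model

variable {d} {t : ℂ} {A : Type*} [Ring A] [Algebra ℂ A] (M : Model d t A)

/-- The linear map to the algebra. -/
noncomputable def lin : (W → ℂ) →ₗ[ℂ] A := Fintype.linearCombination ℂ M.T

theorem lin_apply (x : W → ℂ) : M.lin x = ∑ w, x w • M.T w := Fintype.linearCombination_apply _ _ _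

theorem lin_injective : Function.Injective M.lin := M.indep.fintypeLinearCombination_injective

theorem lin_single (w : W) : M.lin (Pi.single w 1) = M.T w := by
  rw [lin, Fintype.linearCombination_apply_single, one_smul]

theorem lin_Lmat (i : Fin l) (x : W → ℂ) :
    M.lin (((Lmat d i).map (eval t)).mulVec x) = M.T (d.s i) * M.lin x := by
  classical
  have h : M.lin ∘ₗ ((Lmat d i).map (eval t)).mulVecLin = LinearMap.mulLeft ℂ (M.T (d.s i)) ∘ₗ M.lin := by
    refine LinearMap.pi_ext' fun w => LinearMap.ext_ring ?_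
    simp only [LinearMap.comp_apply, LinearMap.coe_single, Matrix.mulVecLin_apply,
      LinearMap.mulLeft_apply, M.lin_single, Matrix.mulVec_single_one]
    rw [lin_apply]
    by_cases h : d.asc i w
    · rw [M.step_asc i w h]
      simp [Lmat, h, apply_ite (eval t), ite_smul, Finset.sum_ite_eq', eval_one]
    · rw [M.step_desc i w h]
      simp [Lmat, h, apply_ite (eval t), ite_smul, add_smul, Finset.sum_add_distrib, Finset.sum_ite_eq']
  exact LinearMap.congr_fun h x

theorem lin_Pmat (v : W) (x : W → ℂ) :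
    M.lin (((Pmat d v).map (eval t)).mulVec x) = M.T v * M.lin x := by
  have h1 : M.T 1 * M.lin x = M.lin x := by
    rw [lin_apply, Finset.mul_sum]
    exact Finset.sum_congr rfl fun w _ => by rw [mul_smul_comm, M.one_mul]
  rw [M.word v, mul_assoc, h1, Pmat]
  clear h1
  induction d.wd v generalizing x with
  | nil => simp
  | cons i L ih =>
    have e : ((Lmat d i * (L.map (Lmat d)).prod).map (eval t)) =
        (Lmat d i).map (eval t) * ((L.map (Lmat d)).prod).map (eval t) :=
      Matrix.map_mul (f := evalRingHom t)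
    rw [List.map_cons, List.prod_cons, e, ← Matrix.mulVec_mulVec, M.lin_Lmat, ih, List.map_cons,
      List.prod_cons, mul_assoc]

theorem T_mul_T (v w : W) : M.T v * M.T w = ∑ u, eval t (Pmat d v u w) • M.T u := by
  rw [← M.lin_single w, ← M.lin_Pmat, Matrix.mulVec_single_one, lin_apply]
  rfl

/-- The averaging element. -/
noncomputable def cas (a : W) : A := ∑ v, t ^ (d.N - d.ln v) • (M.T v * M.T a * M.T v⁻¹)

theorem lin_Cmat (a : W) : M.lin (((Cmat d).map (eval t)).col a) = M.cas a := by
  rw [lin_apply, cas]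
  have : ∀ v, M.T v * M.T a * M.T v⁻¹ =
      ∑ u, (∑ b, eval t (Pmat d v b a) * eval t (Pmat d b u v⁻¹)) • M.T u := by
    intro v
    rw [T_mul_T, Finset.sum_mul]
    simp_rw [smul_mul_assoc, T_mul_T, Finset.smul_sum, smul_smul, Finset.sum_smul]
    exact Finset.sum_comm
  simp_rw [this, Finset.smul_sum, smul_smul]
  rw [Finset.sum_comm]
  refine Finset.sum_congr rfl fun u _ => ?_
  rw [← Finset.sum_smul]
  simp [Cmat, Matrix.col, eval_finsetSum]

/-- The span of the averaging elements. -/
noncomputable def casSpan : Submodule ℂ A := Submodule.span ℂ (Set.range M.cas)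

/-- The elements of the span commuting with the generators. -/
noncomputable def cent : Submodule ℂ A :=
  LinearMap.range M.lin ⊓ ⨅ i : Fin l,
    LinearMap.ker (LinearMap.mulLeft ℂ (M.T (d.s i)) - LinearMap.mulRight ℂ (M.T (d.s i)))

theorem mem_cent {y : A} :
    y ∈ M.cent ↔ (∃ x, M.lin x = y) ∧ ∀ i, M.T (d.s i) * y = y * M.T (d.s i) := by
  simp [cent, sub_eq_zero]

theorem rank_Cmat : ((Cmat d).map (eval t)).rank = Module.finrank ℂ M.casSpan := by
  have h : M.casSpan = (LinearMap.range ((Cmat d).map (eval t)).mulVecLin).map M.lin := by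
    rw [Matrix.range_mulVecLin, Submodule.map_span, casSpan, ← Set.range_comp]
    congr 1
    exact congrArg Set.range (funext fun a => (M.lin_Cmat a).symm)
  rw [h, Matrix.rank]
  exact (Submodule.equivMapOfInjective _ M.lin_injective _).finrank_eq

theorem Admat_mulVec (x : W → ℂ) (i : Fin l) :
    M.lin (fun u => ((Admat d).map (eval t)).mulVec x (i, u)) =
      M.T (d.s i) * M.lin x - M.lin x * M.T (d.s i) := by
  rw [← M.lin_Lmat, M.lin_apply x, Finset.sum_mul]
  simp_rw [smul_mul_assoc, T_mul_T, Finset.smul_sum, smul_smul]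
  rw [Finset.sum_comm, lin_apply, lin_apply, ← Finset.sum_sub_distrib]
  refine Finset.sum_congr rfl fun u _ => ?_
  rw [← Finset.sum_smul, ← sub_smul]
  congr 1
  simp only [Admat, Matrix.mulVec, dotProduct, Matrix.map_apply, Matrix.of_apply, eval_sub]
  rw [← Finset.sum_sub_distrib]
  exact Finset.sum_congr rfl fun a _ => by ring

theorem mem_ker_Admat (x : W → ℂ) :
    x ∈ LinearMap.ker ((Admat d).map (eval t)).mulVecLin ↔ M.lin x ∈ M.cent := by
  rw [LinearMap.mem_ker, mem_cent, Matrix.mulVecLin_apply]
  constructor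
  · intro h
    refine ⟨⟨x, rfl⟩, fun i => ?_⟩
    have h2 := M.Admat_mulVec x i
    simp only [h, Pi.zero_apply] at h2
    rw [← sub_eq_zero, ← h2]
    exact map_zero _
  · rintro ⟨-, h⟩
    funext p
    have h2 := M.Admat_mulVec x p.1
    rw [h p.1, sub_self] at h2
    exact congrFun (M.lin_injective (h2.trans (map_zero M.lin).symm)) p.2

theorem nullity_Admat : Fintype.card W = ((Admat d).map (eval t)).rank + Module.finrank ℂ M.cent := by
  have h : M.cent = (LinearMap.ker ((Admat d).map (eval t)).mulVecLin).map M.lin := by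
    refine le_antisymm (fun y hy => ?_) ?_
    · obtain ⟨x, rfl⟩ := (M.mem_cent.1 hy).1
      exact ⟨x, (M.mem_ker_Admat x).2 hy, rfl⟩
    · rintro _ ⟨x, hx, rfl⟩
      exact (M.mem_ker_Admat x).1 hx
  rw [h, ← (Submodule.equivMapOfInjective _ M.lin_injective _).finrank_eq, Matrix.rank,
    LinearMap.finrank_range_add_finrank_ker, Module.finrank_fintype_fun_eq_card]

theorem Admat_mul_Cmat (h : ∀ a i, M.T (d.s i) * M.cas a = M.cas a * M.T (d.s i)) :
    (Admat d).map (eval t) * (Cmat d).map (eval t) = 0 := by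
  ext p a
  have hmem : ((Cmat d).map (eval t)).col a ∈ LinearMap.ker ((Admat d).map (eval t)).mulVecLin :=
    (M.mem_ker_Admat _).2 (M.mem_cent.2 ⟨⟨_, rfl⟩, by rw [M.lin_Cmat]; exact h a⟩)
  exact congrFun (LinearMap.mem_ker.1 hmem) p

end Model

variable {d}

/-- **Tits deformation.** -/
theorem finrank_eq {t₁ t₂ : ℂ} {A₁ A₂ : Type*} [Ring A₁] [Algebra ℂ A₁] [Ring A₂] [Algebra ℂ A₂]
    (M₁ : Model d t₁ A₁) (M₂ : Model d t₂ A₂) (h₁ : M₁.casSpan = M₁.cent) (h₂ : M₂.casSpan = M₂.cent)
    (S : Set ℂ) (hS : S.Infinite)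
    (hSc : ∀ t ∈ S, (Admat d).map (eval t) * (Cmat d).map (eval t) = 0) :
    Module.finrank ℂ M₁.cent = Module.finrank ℂ M₂.cent := by
  have hfin := (((finite_rank_drop (Cmat d) t₁).union (finite_rank_drop (Cmat d) t₂)).union
    ((finite_rank_drop (Admat d) t₁).union (finite_rank_drop (Admat d) t₂)))
  obtain ⟨t, ht, hnot⟩ := (hS.sdiff hfin).nonempty
  simp only [Set.mem_union, Set.mem_ofPred_eq, not_or, not_lt] at hnot
  have hle : ((Cmat d).map (eval t)).rank + ((Admat d).map (eval t)).rank ≤ Fintype.card W := by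
    have := LinearMap.finrank_range_add_finrank_ker ((Admat d).map (eval t)).mulVecLin
    rw [Module.finrank_fintype_fun_eq_card] at this
    have hsub : LinearMap.range ((Cmat d).map (eval t)).mulVecLin ≤
        LinearMap.ker ((Admat d).map (eval t)).mulVecLin := by
      rw [LinearMap.range_le_ker_iff, ← Matrix.mulVecLin_mul, hSc t ht]
      exact Matrix.mulVecLin_zero
    have h3 := Submodule.finrank_mono hsub
    simp only [Matrix.rank] at *
    omega
  have a₁ := M₁.nullity_Admat
  have a₂ := M₂.nullity_Admat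
  have b₁ := M₁.rank_Cmat
  have b₂ := M₂.rank_Cmat
  rw [h₁] at b₁
  rw [h₂] at b₂
  omega

end Cfsg.Agent.HeckeDeform
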