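import Mathlib.Algebra.MonoidAlgebra.Basic
import Mathlib.Analysis.Complex.Basic
import Cfsg.Agent.Block.GroupAlgebra

/-!
The averaging idempotent of a subgroup in the complex group algebra and the averaging map to the centre
(owner: helper32).
-/

set_option linter.style.haveILetI false

namespace Cfsg.Agent.HeckeDeform

open MonoidAlgebra Cfsg.Agent.Block
open scoped ComplexConjugate

variable {G : Type*} [Group G] [Fintype G] (B : Subgroup G)

/-- The averaging idempotent. -/
noncomputable def eB : MonoidAlgebra ℂ G :=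
  letI := Fintype.ofFinite B
  (Nat.card B : ℂ)⁻¹ • ∑ b : B, single (b : G) 1

theorem eB_def [Fintype B] : eB B = (Nat.card B : ℂ)⁻¹ • ∑ b : B, single (b : G) 1 := by
  unfold eB
  convert rfl

theorem single_mul_eB {b : G} (hb : b ∈ B) : single b 1 * eB B = eB B := by
  haveI := Fintype.ofFinite B
  rw [eB_def, mul_smul_comm, Finset.mul_sum]
  congr 1
  refine Fintype.sum_equiv (Equiv.mulLeft (⟨b, hb⟩ : B)) _ _ fun x => ?_
  simp [single_mul_single]

theorem eB_mul_single {b : G} (hb : b ∈ B) : eB B * single b 1 = eB B := by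
  haveI := Fintype.ofFinite B
  rw [eB_def, smul_mul_assoc, Finset.sum_mul]
  congr 1
  refine Fintype.sum_equiv (Equiv.mulRight (⟨b, hb⟩ : B)) _ _ fun x => ?_
  simp [single_mul_single]

theorem eB_mul_of_fixed {x : MonoidAlgebra ℂ G} (h : ∀ b ∈ B, single b 1 * x = x) : eB B * x = x := by
  haveI := Fintype.ofFinite B
  rw [eB_def, smul_mul_assoc, Finset.sum_mul, Finset.sum_congr rfl fun (b : B) _ => h b b.2,
    Finset.sum_const, Finset.card_univ, ← Nat.card_eq_fintype_card, ← Nat.cast_smul_eq_nsmul ℂ, smul_smul,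
    inv_mul_cancel₀ (Nat.cast_ne_zero.2 Nat.card_pos.ne'), one_smul]

theorem eB_mul_eB : eB B * eB B = eB B := eB_mul_of_fixed B fun _ => single_mul_eB B

theorem coeff_eB (x : G) [Decidable (x ∈ B)] :
    (eB B).coeff x = if x ∈ B then (Nat.card B : ℂ)⁻¹ else 0 := by
  classical
  haveI := Fintype.ofFinite B
  rw [eB_def, coeff_smul, coeff_sum]
  simp only [Finsupp.smul_apply, Finsupp.coe_finsetSum, Finset.sum_apply, coeff_single, Finsupp.single_apply,
    smul_eq_mul]
  by_cases hx : x ∈ B
  · rw [if_pos hx, Finset.sum_eq_single ⟨x, hx⟩ (fun b _ hb => if_neg fun e => hb (Subtype.ext e)) (by simp),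
      if_pos rfl, mul_one]
  · rw [if_neg hx, Finset.sum_eq_zero fun (b : B) _ => if_neg fun (e : (b : G) = x) => hx (e ▸ b.2), mul_zero]

/-- The average of the conjugates. -/
noncomputable def avg : MonoidAlgebra ℂ G →ₗ[ℂ] MonoidAlgebra ℂ G :=
  (Nat.card G : ℂ)⁻¹ •
    ∑ g : G, LinearMap.mulLeft ℂ (single g 1) ∘ₗ LinearMap.mulRight ℂ (single g⁻¹ 1)

theorem avg_apply (y : MonoidAlgebra ℂ G) :
    avg y = (Nat.card G : ℂ)⁻¹ • ∑ g : G, single g 1 * (y * single g⁻¹ 1) := by
  simp [avg]

theorem avg_commute_single (y : MonoidAlgebra ℂ G) (h : G) : single h 1 * avg y = avg y * single h 1 := by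
  rw [avg_apply, mul_smul_comm, smul_mul_assoc, Finset.mul_sum, Finset.sum_mul]
  congr 1
  refine Fintype.sum_equiv (Equiv.mulLeft h) _ _ fun g => ?_
  simp only [Equiv.coe_mulLeft, ← mul_assoc, single_mul_single, mul_one]
  rw [mul_assoc _ _ (single h 1), single_mul_single, mul_one]
  congr 3
  group

theorem avg_commute (y x : MonoidAlgebra ℂ G) : x * avg y = avg y * x := by
  induction x using MonoidAlgebra.induction_linear with
  | zero => simp
  | add a b ha hb => simp [add_mul, mul_add, ha, hb]
  | single g c =>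
    rw [show single g c = c • single g (1 : ℂ) by simp, smul_mul_assoc, mul_smul_comm, avg_commute_single]

/-- The centre as a subspace. -/
noncomputable def centre : Submodule ℂ (MonoidAlgebra ℂ G) :=
  (Subalgebra.center ℂ (MonoidAlgebra ℂ G)).toSubmodule

theorem avg_mem_centre (y : MonoidAlgebra ℂ G) : avg y ∈ (centre : Submodule ℂ (MonoidAlgebra ℂ G)) :=
  Subalgebra.mem_center_iff (R := ℂ) (A := MonoidAlgebra ℂ G).2 fun x => avg_commute y x

/-- The pairing of coefficient functions. -/
noncomputable def pair (a b : MonoidAlgebra ℂ G) : ℂ := ∑ x, a.coeff x * conj (b.coeff x)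

theorem pair_mul_single (a b : MonoidAlgebra ℂ G) (h : G) :
    pair (a * single h 1) b = pair a (b * single h⁻¹ 1) := by
  classical
  have hc : ∀ (c : MonoidAlgebra ℂ G) (u x : G), (c * single u 1).coeff x = c.coeff (x * u⁻¹) := by
    intro c u x
    rw [coeff_mul_sum', Finset.sum_eq_single u]
    · simp
    · intro y _ hy
      simp [coeff_single, Finsupp.single_apply, Ne.symm hy]
    · simp
  simp only [pair, hc, inv_inv]
  refine Fintype.sum_equiv (Equiv.mulRight h⁻¹) _ _ fun x => ?_
  simp

theorem pair_sum_left {ι : Type*} (s : Finset ι) (a : ι → MonoidAlgebra ℂ G) (b : MonoidAlgebra ℂ G) :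
    pair (∑ i ∈ s, a i) b = ∑ i ∈ s, pair (a i) b := by
  simp only [pair, coeff_sum, Finsupp.coe_finsetSum, Finset.sum_apply, Finset.sum_mul]
  exact Finset.sum_comm

theorem pair_sum_right {ι : Type*} (s : Finset ι) (a : MonoidAlgebra ℂ G) (b : ι → MonoidAlgebra ℂ G) :
    pair a (∑ i ∈ s, b i) = ∑ i ∈ s, pair a (b i) := by
  simp only [pair, coeff_sum, Finsupp.coe_finsetSum, Finset.sum_apply, map_sum, Finset.mul_sum]
  exact Finset.sum_comm

theorem pair_smul_left (c : ℂ) (a b : MonoidAlgebra ℂ G) : pair (c • a) b = c * pair a b := by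
  simp [pair, Finset.mul_sum, mul_assoc]

theorem pair_smul_right (c : ℂ) (a b : MonoidAlgebra ℂ G) : pair a (c • b) = conj c * pair a b := by
  simp [pair, Finset.mul_sum, mul_left_comm]

theorem pair_mul_eB (a b : MonoidAlgebra ℂ G) : pair (a * eB B) b = pair a (b * eB B) := by
  haveI := Fintype.ofFinite B
  simp only [eB_def, mul_smul_comm, Finset.mul_sum, pair_smul_left, pair_smul_right, pair_sum_left,
    pair_sum_right, map_inv₀, map_natCast]
  rw [← Finset.mul_sum, ← Finset.mul_sum]
  congr 1
  exact Fintype.sum_equiv (Equiv.inv B) _ _ fun x => by simp [pair_mul_single]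

theorem eq_zero_of_pair_self (a : MonoidAlgebra ℂ G) (h : pair a a = 0) : a = 0 := by
  have h1 : ((∑ x, Complex.normSq (a.coeff x) : ℝ) : ℂ) = 0 := by
    rw [Complex.ofReal_sum, ← h]
    exact Finset.sum_congr rfl fun x _ => (Complex.mul_conj _).symm
  have h2 := (Finset.sum_eq_zero_iff_of_nonneg fun x _ => Complex.normSq_nonneg _).1 (Complex.ofReal_eq_zero.1 h1)
  exact groupAlgebra_ext fun g => by simpa using Complex.normSq_eq_zero.1 (h2 g (Finset.mem_univ g))

/-- The average of the idempotent acts injectively. -/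
theorem eq_zero_of_mul_avg_eB {y : MonoidAlgebra ℂ G} (hy : y * eB B = y) (h : y * avg (eB B) = 0) :
    y = 0 := by
  have hterm : ∀ g : G, pair (y * (single g 1 * (eB B * single g⁻¹ 1))) y =
      pair (y * single g 1 * eB B) (y * single g 1 * eB B) := by
    intro g
    rw [← mul_assoc (single g 1), ← mul_assoc y, ← mul_assoc y, pair_mul_single, inv_inv,
      pair_mul_eB B _ (y * single g 1 * eB B), mul_assoc _ (eB B) (eB B), eB_mul_eB, ← pair_mul_eB]
  have h0 : pair (y * avg (eB B)) y = 0 := by
    rw [h]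
    simp [pair]
  rw [avg_apply, mul_smul_comm, Finset.mul_sum, pair_smul_left, pair_sum_left, mul_eq_zero,
    Finset.sum_congr rfl fun g _ => hterm g] at h0
  have h1 : ∑ g : G, ∑ x, Complex.normSq ((y * single g 1 * eB B).coeff x) = 0 := by
    apply Complex.ofReal_injective
    rw [Complex.ofReal_zero, ← (h0.resolve_left (inv_ne_zero (Nat.cast_ne_zero.2 Nat.card_pos.ne')))]
    simp only [Complex.ofReal_sum, pair, Complex.mul_conj]
  have h2 := (Finset.sum_eq_zero_iff_of_nonneg fun g _ =>
    Finset.sum_nonneg fun x _ => Complex.normSq_nonneg _).1 h1 1 (Finset.mem_univ _)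
  rw [← one_def, mul_one, hy] at h2
  exact groupAlgebra_ext fun g => by
    simpa using Complex.normSq_eq_zero.1
      ((Finset.sum_eq_zero_iff_of_nonneg fun x _ => Complex.normSq_nonneg _).1 h2 g (Finset.mem_univ g))

end Cfsg.Agent.HeckeDeform
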