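import Cfsg.Agent.ChevGrp.WeightOps

/-!
The operators `T_i` on vectors fixed by `B`, in arbitrary characteristic; the Borel sum in the group algebra
(owner: helper32).
-/

set_option linter.style.haveILetI false

namespace Cfsg.Agent.ChevGrp

open Cfsg.Lie

namespace Sys

variable {D : ChevalleyDatum} {F : Type*} [Field F] [Fintype F] {G : Type*} [Group G] [Finite G]
  (S : Sys D F G) {len : ℕ → ℕ} {k : Type*} [Field k] {V : Type*} [AddCommGroup V] [Module k V]
  (ρ : Representation k G V)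

/-- Fixed by `B`. -/
def IsBFix (v : V) : Prop := ∀ b ∈ S.Bbar, ρ b v = v

theorem IsBFix.isFix {v : V} (h : S.IsBFix ρ v) : S.IsFix ρ v := fun u hu => h u (S.Ubar_le_Bbar hu)

theorem IsBFix.isEig {v : V} (h : S.IsBFix ρ v) : S.IsEig ρ (fun _ => 1) v := fun a ha => by
  rw [h a (S.Hbar_le_Bbar ha), one_smul]

theorem IsBFix.Sw (hS : Rules D F) (hR : RootTable D len) (w : List (Fin D.rank)) {v : V}
    (h : S.IsBFix ρ v) : S.IsBFix ρ (S.Sw ρ w v) := by
  intro b hb
  obtain ⟨u, hu, a, ha, rfl⟩ := (S.mem_Bbar hS hR).1 hb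
  rw [map_mul, Module.End.mul_apply, S.Sw_isEig ρ hS hR w (IsBFix.isEig S ρ h) a ha, twist, one_smul,
    S.Sw_isFix ρ hS hR w (IsBFix.isFix S ρ h) u hu]

theorem IsBFix.Sw_congr (hS : Rules D F) (hR : RootTable D len) {v w : List (Fin D.rank)}
    (h : ∀ r < D.nroots, act D v r = act D w r) {x : V} (hx : S.IsBFix ρ x) :
    S.Sw ρ v x = S.Sw ρ w x := by
  obtain ⟨c, hc, e⟩ := S.nW_congr hS hR h
  rw [S.Sw_congr ρ hS hR h hc e, IsBFix.Sw S ρ hS hR w hx c (S.Hbar_le_Bbar hc)]

theorem Sw_singleton (hS : Rules D F) (hR : RootTable D len) (i : Fin D.rank) (x : V) :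
    S.Sw ρ [i] x = S.T ρ i x := by
  rw [← S.T_Sw ρ hS hR i [] (hR.simple_pos i), S.Sw_nil ρ hR]

theorem T_T_Bfix (hS : Rules D F) (hR : RootTable D len) (i : Fin D.rank) {v : V} (hv : S.IsBFix ρ v) :
    S.T ρ i (S.T ρ i v) = (Fintype.card F : k) • v + ((Fintype.card F : k) - 1) • S.T ρ i v := by
  classical
  have hp := hR.simple_lt i i.2
  obtain ⟨a, ha, hia⟩ := S.conjP_nI hS hR i
  have h0 : a (D.simple i) ≠ 0 := right_ne_zero_of_mul_eq_one (ha _ hp)
  set n := S.nI i with hn
  have hzB : n * n ∈ S.Bbar := S.Hbar_le_Bbar (S.nI_sq_mem hR i)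
  have hUx : ∀ t, S.x (D.simple i) t ∈ S.Bbar := fun t =>
    S.Ubar_le_Bbar (S.x_mem_US (hR.simple_pos i) t)
  have hterm : ∀ s : F, s ≠ 0 →
      ∑ t : F, ρ (S.x (D.simple i) t * n * (S.x (D.simple i) s * n)) v = S.T ρ i v := by
    intro s hs
    have h1 := hia _ hp s
    rw [act_singleton, hR.reflect_simple i.2] at h1
    set r := a (D.simple i) * s with hr
    have hr0 : r ≠ 0 := mul_ne_zero h0 hs
    set s' := -r⁻¹ with hs'
    have hs'0 : s' ≠ 0 := neg_ne_zero.2 (inv_ne_zero hr0)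
    have hxneg : S.x (D.neg (D.simple i)) r =
        S.x (D.simple i) (-s') * (S.hEl (D.simple i) s' * n) * S.x (D.simple i) (-s') := by
      rw [hn, nI, ← S.nEl_eq hR hp, nEl, ← S.x_inv hp]
      simp [hs', mul_assoc]
    have hc : n⁻¹ * S.hEl (D.simple i) s' * n ∈ S.Bbar :=
      S.Hbar_le_Bbar (S.nI_inv_conj_Hbar hS hR i (S.hEl_simple_mem i hs'0))
    rw [T_apply]
    refine Fintype.sum_equiv (Equiv.addRight (-s')) _ _ fun t => ?_
    have e : S.x (D.simple i) t * n * (S.x (D.simple i) s * n) =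
        S.x (D.simple i) (t + -s') * n *
          ((n⁻¹ * S.hEl (D.simple i) s' * n) * (S.x (D.simple i) (-s') * (n * n))) := by
      rw [← S.x_add _ hp,
        show S.x (D.simple i) t * n * (S.x (D.simple i) s * n) =
          S.x (D.simple i) t * (n * S.x (D.simple i) s * n⁻¹) * (n * n) by group, h1, hxneg]
      group
    rw [e, map_mul ρ (_ * n), Module.End.mul_apply, hv _ (mul_mem hc (mul_mem (hUx _) hzB))]
    rfl
  have h0term : ∑ t : F, ρ (S.x (D.simple i) t * n * (S.x (D.simple i) 0 * n)) v =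
      (Fintype.card F : k) • v := by
    rw [S.x_zero hp, one_mul]
    have : ∀ t : F, ρ (S.x (D.simple i) t * n * n) v = v := fun t => by
      rw [mul_assoc]
      exact hv _ (mul_mem (hUx t) hzB)
    rw [Finset.sum_congr rfl fun t _ => this t, Finset.sum_const, Finset.card_univ, ← Nat.cast_smul_eq_nsmul k]
  have e1 : S.T ρ i (S.T ρ i v) =
      ∑ s : F, ∑ t : F, ρ (S.x (D.simple i) t * n * (S.x (D.simple i) s * n)) v := by
    rw [S.T_apply ρ i (S.T ρ i v), Finset.sum_comm]
    refine Finset.sum_congr rfl fun t _ => ?_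
    rw [T_apply, map_sum]
    exact Finset.sum_congr rfl fun s _ => by rw [← Module.End.mul_apply, ← map_mul]
  rw [e1, Finset.sum_eq_add_sum_sdiff_singleton_of_mem (Finset.mem_univ (0 : F)), h0term,
    Finset.sum_congr rfl fun s hs => hterm s (by simpa using hs), Finset.sum_const,
    Finset.card_sdiff_of_subset (Finset.subset_univ _), Finset.card_singleton, Finset.card_univ,
    ← Nat.cast_smul_eq_nsmul k, Nat.cast_sub Fintype.card_pos, Nat.cast_one]

theorem T_Sw_desc_Bfix (hS : Rules D F) (hR : RootTable D len) (i : Fin D.rank)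
    (v : List (Fin D.rank)) (hq : D.IsNegRoot (act D v.reverse (D.simple i))) {x : V}
    (hx : S.IsBFix ρ x) :
    S.T ρ i (S.Sw ρ v x) =
      (Fintype.card F : k) • S.Sw ρ (i :: v) x + ((Fintype.card F : k) - 1) • S.Sw ρ v x := by
  have hpos := hR.act_pos_of_neg_cons i v hq
  have e1 : S.Sw ρ v x = S.T ρ i (S.Sw ρ (i :: v) x) := by
    rw [S.T_Sw ρ hS hR i (i :: v) hpos,
      IsBFix.Sw_congr S ρ hS hR (fun r hr => hR.act_cons_cons i v hr) hx]
  rw [e1, S.T_T_Bfix ρ hS hR i (IsBFix.Sw S ρ hS hR (i :: v) hx)]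

theorem card_US_invSet (hR : RootTable D len) (w : List (Fin D.rank)) :
    Nat.card ↥(S.US (invSet D w)) = Fintype.card F ^ invCount D w := by
  rw [S.card_US hR (hR.inv_closed w), Nat.card_eq_fintype_card]
  congr 1
  rw [invCount_eq, ← Nat.card_eq_finsetCard]
  exact Nat.card_congr (Equiv.subtypeEquivRight fun r => (mem_invFin D w r).symm)

end Sys

theorem RootTable.invCount_reverse {D : ChevalleyDatum} {len : ℕ → ℕ} (hR : RootTable D len)
    (w : List (Fin D.rank)) : invCount D w.reverse = invCount D w := by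
  have key : ∀ u : List (Fin D.rank), invCount D u ≤ invCount D u.reverse := by
    intro u
    rw [invCount_eq, invCount_eq]
    refine Finset.card_le_card_of_injOn (fun r => D.neg (act D u r)) (fun r hr => ?_) fun r hr s hs e => ?_
    · simp only [Finset.mem_coe, mem_invFin] at hr ⊢
      obtain ⟨hp, hn⟩ := hr
      refine ⟨(hR.pos_neg_iff hn.1).2 hn, ?_⟩
      rw [hR.act_neg _ hn.1, hR.act_reverse_act u hp.1]
      exact (hR.neg_neg_iff hp.1).2 hp
    · simp only [Finset.mem_coe, mem_invFin] at hr hs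
      have e' := congrArg D.neg e
      simp only [hR.neg_neg_root hr.2.1, hR.neg_neg_root hs.2.1] at e'
      exact hR.act_inj u hr.1.1 hs.1.1 e'
  refine le_antisymm ?_ (key w)
  simpa using key w.reverse

end Cfsg.Agent.ChevGrp
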