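import Cfsg.Agent.HeckeDeform.Borel
import Cfsg.Agent.Brauer.RegularRank
import Cfsg.Agent.UnipGL.Characters
import Cfsg.Agent.CharInd.Basic

/-!
The constituents of a permutation character and the centre cut down by the averaging idempotent
(owner: helper32).
-/

set_option linter.style.haveILetI false

namespace Cfsg.Agent.HeckeDeform

open MonoidAlgebra Cfsg.Agent.Block
open scoped ComplexConjugate

universe u

variable {G : Type u} [Group G] [Fintype G] (B : Subgroup G)

theorem centre_eq_span :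
    (centre : Submodule ℂ (MonoidAlgebra ℂ G)) =
      Submodule.span ℂ (Set.range fun χ : IrrCharacter G => ofFn (χ : G → ℂ)) := by
  refine le_antisymm (fun z hz => ?_) (Submodule.span_le.2 ?_)
  · have hzc := (Subalgebra.mem_center_iff (R := ℂ) (A := MonoidAlgebra ℂ G)).1 hz
    have hcl : IsClassFunction G fun g => z.coeff g := fun g x =>
      isCentralElt_of_commute (fun g => (hzc (single g 1)).symm) g x
    haveI : Fintype (IrrCharacter G) := Fintype.ofFinite _
    have h : z = ∑ χ : IrrCharacter G, classInner (fun g => z.coeff g) χ • ofFn (χ : G → ℂ) := by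
      refine groupAlgebra_ext fun g => ?_
      have := congrFun (Char.eq_sum_classInner_smul hcl) g
      simp only [coeff_sum, coeff_smul, Finsupp.coe_finsetSum, Finset.sum_apply, Finsupp.smul_apply, coeff_ofFn]
      simp only [Finset.sum_apply, Pi.smul_apply, smul_eq_mul] at this ⊢
      convert this
    rw [h]
    exact Submodule.sum_mem _ fun χ _ => Submodule.smul_mem _ _ (Submodule.subset_span ⟨χ, rfl⟩)
  · rintro _ ⟨χ, rfl⟩
    refine (Subalgebra.mem_center_iff (R := ℂ) (A := MonoidAlgebra ℂ G)).2 fun x => ?_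
    have hc : IsCentralElt (ofFn (χ : G → ℂ)) := fun g h => by
      simp [Char.irr_isClassFunction χ.2 g h]
    exact (isCentralElt_commute hc x).symm

theorem pair_ofFn_mul_eB {χ ψ : G → ℂ} (hχ : IsIrrCharacter G χ) (hψ : IsIrrCharacter G ψ) [Fintype B] :
    pair (eB B * ofFn χ) (eB B * ofFn ψ) =
      (Nat.card B : ℂ)⁻¹ * ((∑ b : B, ψ b) / ψ 1) * ((Nat.card G : ℂ) * classInner χ ψ) := by
  have hc : ∀ {φ : G → ℂ}, IsIrrCharacter G φ → eB B * ofFn φ = ofFn φ * eB B := fun {φ} hφ =>
    (isCentralElt_commute (a := ofFn φ) (fun g h => by simp [Char.irr_isClassFunction hφ g h]) _).symm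
  rw [hc hχ, hc hψ, pair_mul_eB, mul_assoc, eB_mul_eB, eB_def, mul_smul_comm, Finset.mul_sum,
    pair_smul_right, pair_sum_right, map_inv₀, map_natCast]
  have hterm : ∀ b : B, pair (ofFn χ) (ofFn ψ * single (b : G) 1) =
      ψ (b : G) / ψ 1 * ((Nat.card G : ℂ) * classInner χ ψ) := by
    intro b
    have hsum : (Nat.card G : ℂ) * classInner χ ψ = ∑ z : G, χ z * conj (ψ z) := by
      unfold classInner
      rw [mul_inv_cancel_left₀ (Nat.cast_ne_zero.2 Nat.card_pos.ne')]
    rw [hsum, ← Brauer.sum_class_mul_conj (fun x b => Char.irr_isClassFunction hχ x b) hψ (b : G)]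
    simp only [pair]
    refine Finset.sum_congr rfl fun x _ => ?_
    rw [coeff_ofFn, coeff_mul_sum', Finset.sum_eq_single (b : G)]
    · simp
    · intro y _ hy
      simp [coeff_single, Ne.symm hy]
    · simp
  rw [Finset.sum_congr rfl fun b _ => hterm b, Finset.sum_div, mul_assoc, Finset.sum_mul]

theorem classInner_fixedPoint {χ : G → ℂ} (hχ : IsIrrCharacter G χ) [Fintype B] :
    classInner (fixedPointCharacter B) χ = (Nat.card B : ℂ)⁻¹ * conj (∑ b : B, χ b) := by
  rw [UnipGL.fixedPointCharacter_eq_indFun,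
    CharInd.classInner_indFun_left B _ (Char.irr_isClassFunction hχ), classInner, map_sum]
  simp

/-- The constituents of the permutation character on the cosets of `B`. -/
theorem card_constituents :
    Nat.card {χ : IrrCharacter G // ∃ φ : G → ℂ, IsCharacter G φ ∧
      fixedPointCharacter B = (χ : G → ℂ) + φ} =
      Module.finrank ℂ ((centre : Submodule ℂ (MonoidAlgebra ℂ G)).map (LinearMap.mulLeft ℂ (eB B))) := by
  classical
  haveI := Fintype.ofFinite B
  haveI : Fintype (IrrCharacter G) := Fintype.ofFinite _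
  have hB : (Nat.card B : ℂ) ≠ 0 := Nat.cast_ne_zero.2 Nat.card_pos.ne'
  have hG : (Nat.card G : ℂ) ≠ 0 := Nat.cast_ne_zero.2 Nat.card_pos.ne'
  set K := {χ : IrrCharacter G // (∑ b : B, (χ : G → ℂ) b) ≠ 0}
  have hiff : ∀ χ : IrrCharacter G, (∃ φ : G → ℂ, IsCharacter G φ ∧
      fixedPointCharacter B = (χ : G → ℂ) + φ) ↔ (∑ b : B, (χ : G → ℂ) b) ≠ 0 := by
    intro χ
    have hne : classInner (fixedPointCharacter B) (χ : G → ℂ) ≠ 0 ↔ (∑ b : B, (χ : G → ℂ) b) ≠ 0 := by
      rw [classInner_fixedPoint B χ.2, mul_ne_zero_iff, and_iff_right (inv_ne_zero hB), Ne, map_eq_zero]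
    rw [← hne]
    constructor
    · rintro ⟨φ, hφ, e⟩ h0
      obtain ⟨n, hn⟩ := Char.isCharacter_classInner_nat hφ χ
      rw [e, Char.classInner_add_left, Char.classInner_irr_self χ.2, hn] at h0
      have : ((1 + n : ℕ) : ℂ) = 0 := by push_cast; exact h0
      exact absurd (Nat.cast_eq_zero.1 this) (by omega)
    · intro h0
      obtain ⟨n, hn⟩ := Char.isCharacter_classInner_nat (UnipGL.isCharacter_fixedPointCharacter B) χ
      have hn0 : 0 < n := Nat.pos_of_ne_zero fun e => h0 (by rw [hn, e, Nat.cast_zero])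
      exact ⟨_, Char.isCharacter_sub_constituent (UnipGL.isCharacter_fixedPointCharacter B) hn0 hn, by simp⟩
  rw [Nat.card_congr (Equiv.subtypeEquivRight hiff)]
  let v : IrrCharacter G → MonoidAlgebra ℂ G := fun χ => eB B * ofFn (χ : G → ℂ)
  have hv0 : ∀ χ : IrrCharacter G, (∑ b : B, (χ : G → ℂ) b) = 0 → v χ = 0 := fun χ h =>
    eq_zero_of_pair_self _ (by rw [pair_ofFn_mul_eB B χ.2 χ.2, h]; simp)
  have hli : LinearIndependent ℂ fun χ : K => v χ.1 := by
    rw [Fintype.linearIndependent_iff]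
    intro g hg χ₀
    have h := congrArg (fun a => pair a (v χ₀.1)) hg
    simp only [pair_sum_left, pair_smul_left] at h
    rw [Finset.sum_eq_single χ₀] at h
    · have h0 : pair (v χ₀.1) (v χ₀.1) ≠ 0 := by
        rw [pair_ofFn_mul_eB B χ₀.1.2 χ₀.1.2, Char.classInner_irr_self χ₀.1.2, mul_one]
        exact mul_ne_zero (mul_ne_zero (inv_ne_zero hB)
          (div_ne_zero χ₀.2 (Char.irr_one_ne_zero χ₀.1.2))) hG
      refine (mul_eq_zero.1 ?_).resolve_right h0
      rw [h]
      simp [pair]
    · intro χ _ hne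
      rw [pair_ofFn_mul_eB B χ.1.2 χ₀.1.2, Char.classInner_irr_ne χ.1.2 χ₀.1.2
        (fun e => hne (Subtype.ext (Subtype.ext e)))]
      simp
    · simp
  rw [centre_eq_span, Submodule.map_span, ← Set.range_comp]
  have hspan : Submodule.span ℂ (Set.range (LinearMap.mulLeft ℂ (eB B) ∘
      fun χ : IrrCharacter G => ofFn (χ : G → ℂ))) =
      Submodule.span ℂ (Set.range fun χ : K => v χ.1) := by
    refine le_antisymm (Submodule.span_le.2 ?_) (Submodule.span_mono ?_)
    · rintro _ ⟨χ, rfl⟩
      show v χ ∈ _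
      by_cases h : (∑ b : B, (χ : G → ℂ) b) = 0
      · rw [hv0 χ h]
        exact Submodule.zero_mem _
      · exact Submodule.subset_span ⟨⟨χ, h⟩, rfl⟩
    · rintro _ ⟨χ, rfl⟩
      exact ⟨χ.1, rfl⟩
  rw [hspan, finrank_span_eq_card hli, Nat.card_eq_fintype_card]

end Cfsg.Agent.HeckeDeform
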