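import Cfsg.Agent.HeckeDeform.Basic
import Cfsg.Agent.HeckeDeform.BorelOps
import Cfsg.Agent.HeckeDeform.Borel

/-!
The Hecke algebra of `B` as a realisation of the deformation at the order of the field (owner: helper32).
-/

set_option linter.style.haveILetI false

namespace Cfsg.Agent.HeckeDeform

open MonoidAlgebra Cfsg.Lie Cfsg.Agent.ChevGrp Cfsg.Agent.Block

/-- A labelling of the actions of words by the elements of a group. -/
structure Label (D : ChevalleyDatum) (W : Type*) [Group W] where
  c : List (Fin D.rank) → W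
  c_eq : ∀ v w, c v = c w ↔ ∀ r < D.nroots, act D v r = act D w r
  c_append : ∀ v w, c (v ++ w) = c v * c w
  reduced : ∀ x : W, ∃ v, Reduced D v ∧ c v = x

namespace Label

variable {D : ChevalleyDatum} {W : Type*} [Group W] (L : Label D W)

theorem c_nil : L.c [] = 1 := by
  have := L.c_append [] []
  simpa using this

theorem c_cons (i : Fin D.rank) (w : List (Fin D.rank)) : L.c (i :: w) = L.c [i] * L.c w :=
  L.c_append [i] w

/-- The chosen reduced word. -/
noncomputable def word (x : W) : List (Fin D.rank) := (L.reduced x).choose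

theorem word_reduced (x : W) : Reduced D (L.word x) := (L.reduced x).choose_spec.1

theorem c_word (x : W) : L.c (L.word x) = x := (L.reduced x).choose_spec.2

theorem act_word (v : List (Fin D.rank)) : ∀ r < D.nroots, act D v r = act D (L.word (L.c v)) r :=
  (L.c_eq _ _).1 (L.c_word _).symm

/-- The combinatorial data. -/
noncomputable def data : Data W D.rank where
  s i := L.c [i]
  wd := L.word
  asc i x := D.IsPosRoot (act D (L.word x).reverse (D.simple i))
  ln x := (L.word x).length
  N := D.nroots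

theorem c_reverse {len : ℕ → ℕ} (hR : RootTable D len) (w : List (Fin D.rank)) :
    L.c w.reverse = (L.c w)⁻¹ := by
  refine eq_inv_of_mul_eq_one_left ?_
  rw [← L.c_append, ← L.c_nil, L.c_eq]
  intro r hr
  rw [act_append, hR.act_reverse_act w hr, act_nil]

theorem word_one {len : ℕ → ℕ} (hR : RootTable D len) : L.word 1 = [] := by
  refine List.length_eq_zero_iff.1 ?_
  rw [← L.word_reduced 1, ← L.c_nil,
    invCount_congr D fun r hr => (L.act_word [] r hr).symm]
  exact (reduced_nil D hR)

end Label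

variable {D : ChevalleyDatum} {F : Type*} [Field F] [Fintype F] {G : Type*} [Group G] [Fintype G]
  (S : Sys D F G) {len : ℕ → ℕ} {W : Type*} [Group W] (L : Label D W)

/-- The left regular representation. -/
noncomputable def lreg : Representation ℂ G (MonoidAlgebra ℂ G) where
  toFun g := LinearMap.mulLeft ℂ (single g 1)
  map_one' := LinearMap.ext fun x => by simp [← one_def]
  map_mul' g h := LinearMap.ext fun x => by
    simp [← mul_assoc, single_mul_single, Module.End.mul_apply]

theorem lreg_apply (g : G) (x : MonoidAlgebra ℂ G) : lreg g x = single g 1 * x := rfl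

/-- The basis element of the Hecke algebra. -/
noncomputable def hT (x : W) : MonoidAlgebra ℂ G := S.Sw lreg (L.word x) (eB S.Bbar)

theorem isBFix_eB : S.IsBFix lreg (eB S.Bbar) := fun _ hb => single_mul_eB _ hb

theorem Sw_mul (v : List (Fin D.rank)) (x y : MonoidAlgebra ℂ G) :
    S.Sw lreg v (x * y) = S.Sw lreg v x * y := by
  haveI := Fintype.ofFinite ↥(S.US (invSet D v.reverse))
  simp [Sys.Sw_apply, lreg_apply, Finset.sum_mul, mul_assoc]

theorem T_mul (i : Fin D.rank) (x y : MonoidAlgebra ℂ G) :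
    S.T lreg i (x * y) = S.T lreg i x * y := by
  simp [Sys.T_apply, lreg_apply, Finset.sum_mul, mul_assoc]

theorem eB_mul_hT (hS : Rules D F) (hR : RootTable D len) (x : W) :
    eB S.Bbar * hT S L x = hT S L x :=
  eB_mul_of_fixed _ (Sys.IsBFix.Sw S lreg hS hR _ (isBFix_eB S))

theorem hT_mul_eB (x : W) : hT S L x * eB S.Bbar = hT S L x := by
  rw [hT, ← Sw_mul, eB_mul_eB]

theorem hT_gen (hS : Rules D F) (hR : RootTable D len) (i : Fin D.rank) :
    hT S L (L.c [i]) = S.T lreg i (eB S.Bbar) := by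
  rw [hT, ← Sys.Sw_singleton S lreg hS hR i,
    Sys.IsBFix.Sw_congr S lreg hS hR (fun r hr => (L.act_word [i] r hr).symm) (isBFix_eB S)]

theorem hT_gen_mul (hS : Rules D F) (hR : RootTable D len) (i : Fin D.rank) {y : MonoidAlgebra ℂ G}
    (hy : eB S.Bbar * y = y) : hT S L (L.c [i]) * y = S.T lreg i y := by
  rw [hT_gen S L hS hR i, ← T_mul, hy]

theorem Sw_eB_eq_prod (hS : Rules D F) (hR : RootTable D len) {v : List (Fin D.rank)} (hv : Reduced D v) :
    S.Sw lreg v (eB S.Bbar) = (v.map fun i => hT S L (L.c [i])).prod * eB S.Bbar := by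
  induction v with
  | nil => simp [Sys.Sw_nil S lreg hR]
  | cons i w ih =>
    obtain ⟨h1, h2⟩ := hR.reduced_tail hv
    rw [← S.T_Sw lreg hS hR i w h2, List.map_cons, List.prod_cons, mul_assoc, ← ih h1,
      hT_gen_mul S L hS hR i (eB_mul_of_fixed _ (Sys.IsBFix.Sw S lreg hS hR _ (isBFix_eB S)))]

theorem hT_indep [Fintype W] (hS : Rules D F) (hR : RootTable D len) : LinearIndependent ℂ (hT S L) := by
  classical
  have hval : ∀ x y : W, (hT S L x).coeff (S.nW (L.word y)) =
      if x = y then (Nat.card S.Bbar : ℂ)⁻¹ else 0 := by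
    intro x y
    haveI := Fintype.ofFinite ↥(S.US (invSet D (L.word x).reverse))
    simp only [hT, Sys.Sw_apply, lreg_apply, coeff_sum, Finsupp.coe_finsetSum, Finset.sum_apply]
    have hterm : ∀ (g h : G), (single g (1 : ℂ) * eB S.Bbar).coeff h =
        if g⁻¹ * h ∈ S.Bbar then (Nat.card S.Bbar : ℂ)⁻¹ else 0 := by
      intro g h
      rw [coeff_mul_sum, Finset.sum_eq_single g]
      · simp [coeff_eB]
      · intro b _ hb
        simp [coeff_single, Finsupp.single_apply, Ne.symm hb]
      · simp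
    simp only [hterm]
    by_cases hxy : x = y
    · subst hxy
      rw [if_pos rfl, Fintype.sum_eq_single 1]
      · simp [one_mem]
      · intro u hu
        rw [if_neg]
        intro hb
        apply hu
        let w := L.word x
        let n := S.nW w
        let c := n * S.nW w.reverse
        have hcdef : c = n * S.nW w.reverse := rfl
        have hc : c ∈ S.Hbar := S.nW_reverse_mem hS hR w
        have hu' : c⁻¹ * (u : G) * c ∈ S.US (invSet D w.reverse) :=
          (Subgroup.mem_normalizer_iff''.1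
            (S.Hbar_le_normalizer_US hS hR (T := invSet D w.reverse) (fun r hr => hr.1.1) hc) _).1 u.2
        have hV := S.nW_conj_neg hS hR w.reverse hu'
        have e : S.nW w.reverse * (c⁻¹ * (u : G) * c) * (S.nW w.reverse)⁻¹ = n⁻¹ * (u * n) := by
          rw [hcdef]
          group
        have h2 : n⁻¹ * ((u : G) * n) ∈ S.Vbar ⊓ S.Bbar := by
          refine ⟨e ▸ hV, ?_⟩
          have := inv_mem hb
          rw [mul_inv_rev, inv_inv] at this
          exact this
        rw [S.Vbar_inf_Bbar hS hR, Subgroup.mem_bot, inv_mul_eq_one, right_eq_mul] at h2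
        exact Subtype.ext h2
    · rw [if_neg hxy]
      refine Finset.sum_eq_zero fun u _ => if_neg fun hb => hxy ?_
      have hu : (u : G) ∈ S.Bbar := S.Ubar_le_Bbar (S.US_mono (fun r hr => hr.1) u.2)
      rw [← L.c_word x, ← L.c_word y, eq_comm, L.c_eq]
      refine S.act_eq_of_bruhat hS hR (inv_mem hu) hb (v := L.word y) (w := L.word x) (congrArg S.θ ?_)
      group
  rw [Fintype.linearIndependent_iff]
  intro g hg y
  have h := congrArg (fun a : MonoidAlgebra ℂ G => a.coeff (S.nW (L.word y))) hg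
  simp only [coeff_sum, Finsupp.coe_finsetSum, Finset.sum_apply, coeff_smul, Finsupp.smul_apply, hval,
    smul_eq_mul, mul_ite, mul_zero, Finset.sum_ite_eq', Finset.mem_univ, if_true, coeff_zero,
    Finsupp.coe_zero, Pi.zero_apply] at h
  exact (mul_eq_zero.1 h).resolve_right (inv_ne_zero (Nat.cast_ne_zero.2 Nat.card_pos.ne'))

/-- The realisation. -/
noncomputable def model [Fintype W] (hS : Rules D F) (hR : RootTable D len) :
    Model L.data (Fintype.card F : ℂ) (MonoidAlgebra ℂ G) where
  T := hT S L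
  indep := hT_indep S L hS hR
  one_mul x := by
    rw [show hT S L 1 = eB S.Bbar by rw [hT, L.word_one hR, Sys.Sw_nil S lreg hR], eB_mul_hT S L hS hR]
  step_asc i x h := by
    show hT S L (L.c [i]) * hT S L x = hT S L (L.c [i] * x)
    have hact : ∀ r < D.nroots, act D (i :: L.word x) r = act D (L.word (L.c [i] * x)) r := by
      have := L.act_word (i :: L.word x)
      rwa [L.c_cons, L.c_word] at this
    rw [hT_gen_mul S L hS hR i (eB_mul_hT S L hS hR x), hT, S.T_Sw lreg hS hR i _ h,
      Sys.IsBFix.Sw_congr S lreg hS hR hact (isBFix_eB S)]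
    rfl
  step_desc i x h := by
    show hT S L (L.c [i]) * hT S L x =
      (Fintype.card F : ℂ) • hT S L (L.c [i] * x) + ((Fintype.card F : ℂ) - 1) • hT S L x
    have hact : ∀ r < D.nroots, act D (i :: L.word x) r = act D (L.word (L.c [i] * x)) r := by
      have := L.act_word (i :: L.word x)
      rwa [L.c_cons, L.c_word] at this
    have hneg : D.IsNegRoot (act D (L.word x).reverse (D.simple i)) :=
      (hR.sign _ (hR.act_lt _ (hR.simple_lt i i.2))).resolve_left h
    rw [hT_gen_mul S L hS hR i (eB_mul_hT S L hS hR x), hT, S.T_Sw_desc_Bfix lreg hS hR i _ hneg (isBFix_eB S),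
      Sys.IsBFix.Sw_congr S lreg hS hR hact (isBFix_eB S)]
    rfl
  word v := by
    show hT S L v = _ * hT S L 1
    rw [show hT S L 1 = eB S.Bbar by rw [hT, L.word_one hR, Sys.Sw_nil S lreg hR]]
    exact Sw_eB_eq_prod S L hS hR (L.word_reduced v)

theorem eB_single_eB (hS : Rules D F) (hR : RootTable D len) (v : List (Fin D.rank)) :
    hT S L (L.c v) =
      (Nat.card ↥(S.US (invSet D v.reverse)) : ℂ) • (eB S.Bbar * single (S.nW v) 1 * eB S.Bbar) := by
  haveI := Fintype.ofFinite ↥(S.US (invSet D v.reverse))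
  rw [← eB_mul_hT S L hS hR (L.c v), hT,
    ← Sys.IsBFix.Sw_congr S lreg hS hR (L.act_word v) (isBFix_eB S), Sys.Sw_apply, Finset.mul_sum]
  have : ∀ u : ↥(S.US (invSet D v.reverse)),
      eB S.Bbar * lreg ((u : G) * S.nW v) (eB S.Bbar) = eB S.Bbar * single (S.nW v) 1 * eB S.Bbar := by
    intro u
    rw [lreg_apply, ← one_mul (1 : ℂ), ← single_mul_single, ← mul_assoc, ← mul_assoc,
      eB_mul_single _ (S.Ubar_le_Bbar (S.US_mono (fun r hr => hr.1) u.2))]
    simp
  rw [Finset.sum_congr rfl fun u _ => this u, Finset.sum_const, Finset.card_univ,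
    ← Nat.card_eq_fintype_card, ← Nat.cast_smul_eq_nsmul ℂ]

/-- `eB n eB` for the representative of a cell. -/
theorem eB_nW_eB (hS : Rules D F) (hR : RootTable D len) {v : List (Fin D.rank)} (hv : Reduced D v) :
    eB S.Bbar * single (S.nW v) 1 * eB S.Bbar =
      ((Fintype.card F : ℂ) ^ v.length)⁻¹ • hT S L (L.c v) := by
  rw [eB_single_eB S L hS hR v, Sys.card_US_invSet S hR, hR.invCount_reverse, hv, smul_smul,
    Nat.cast_pow, inv_mul_cancel₀ (pow_ne_zero _ (Nat.cast_ne_zero.2 Fintype.card_ne_zero)), one_smul]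

theorem eB_coset (b b' n : G) (hb : b ∈ S.Bbar) (hb' : b' ∈ S.Bbar) :
    eB S.Bbar * single (b * n * b') 1 * eB S.Bbar = eB S.Bbar * single n 1 * eB S.Bbar := by
  rw [show (single (b * n * b') (1 : ℂ) : MonoidAlgebra ℂ G) = single b 1 * single n 1 * single b' 1 by
    simp [single_mul_single], ← mul_assoc, ← mul_assoc, eB_mul_single _ hb, mul_assoc _ (single b' 1),
    single_mul_eB _ hb']

theorem eB_single_mem (hS : Rules D F) (hR : RootTable D len) (hG : S.Gbar = ⊤) (g : G) :
    eB S.Bbar * single g 1 * eB S.Bbar ∈ Submodule.span ℂ (Set.range (hT S L)) := by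
  obtain ⟨b, hb, w, hw, v, hv, rfl⟩ := S.mem_NF hS hR (show g ∈ S.Gbar from hG ▸ Subgroup.mem_top g)
  rw [eB_coset S b v _ hb (S.Ubar_le_Bbar (S.US_mono (fun r hr => hr.1) hv)), eB_nW_eB S L hS hR hw]
  exact Submodule.smul_mem _ _ (Submodule.subset_span ⟨_, rfl⟩)

theorem cas_eq [Fintype W] (hS : Rules D F) (hR : RootTable D len) (hG : S.Gbar = ⊤) (y : MonoidAlgebra ℂ G)
    (hy : eB S.Bbar * y * eB S.Bbar = y) :
    eB S.Bbar * avg y =
      ((Nat.card G : ℂ)⁻¹ * (Nat.card S.Bbar : ℂ) * ((Fintype.card F : ℂ) ^ D.nroots)⁻¹) •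
        ∑ x : W, (Fintype.card F : ℂ) ^ (D.nroots - (L.word x).length) • (hT S L x * y * hT S L x⁻¹) := by
  classical
  set e := eB S.Bbar with he
  set q := (Fintype.card F : ℂ) with hq
  have hq0 : q ≠ 0 := Nat.cast_ne_zero.2 Fintype.card_ne_zero
  have h1 : e * avg y = (Nat.card G : ℂ)⁻¹ •
      ∑ g : G, (e * single g 1 * e) * y * (e * single g⁻¹ 1 * e) := by
    have hc : e * avg y = e * avg y * e := by rw [avg_commute y e, mul_assoc, eB_mul_eB]
    rw [hc, avg_apply, mul_smul_comm, smul_mul_assoc, Finset.mul_sum, Finset.sum_mul]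
    refine congrArg _ (Finset.sum_congr rfl fun g _ => ?_)
    conv_lhs => rw [← hy]
    simp only [mul_assoc]
  haveI : ∀ x : W, Fintype ↥(S.US (invSet D (L.word x))) := fun x => Fintype.ofFinite _
  haveI := Fintype.ofFinite ↥S.Bbar
  let φ : (Σ x : W, ↥S.Bbar × ↥(S.US (invSet D (L.word x)))) → G :=
    fun z => (z.2.1 : G) * S.nW (L.word z.1) * (z.2.2 : G)
  have hφ : Function.Bijective φ := by
    refine ⟨?_, fun g => ?_⟩
    · rintro ⟨x, b, v⟩ ⟨x', b', v'⟩ h
      obtain ⟨h1, h2⟩ := S.bruhat_unique hS hR b.2 b'.2 v.2 v'.2 h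
      have hx : x = x' := by rw [← L.c_word x, ← L.c_word x', L.c_eq]; exact h1
      subst hx
      obtain ⟨h3, h4⟩ := h2 rfl
      exact congrArg (Sigma.mk x) (Prod.ext (Subtype.ext h3) (Subtype.ext h4))
    · obtain ⟨b, hb, w, hw, v, hv, rfl⟩ := S.mem_NF hS hR (show g ∈ S.Gbar from hG ▸ Subgroup.mem_top g)
      obtain ⟨k, hk, e⟩ := S.nW_congr hS hR (L.act_word w)
      refine ⟨⟨L.c w, ⟨b * k, mul_mem hb (S.Hbar_le_Bbar hk)⟩, ⟨v, invSet_congr D (L.act_word w) ▸ hv⟩⟩, ?_⟩
      simp [φ, e, mul_assoc]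
  have hcell : ∀ z : (Σ x : W, ↥S.Bbar × ↥(S.US (invSet D (L.word x)))),
      (e * single (φ z) 1 * e) * y * (e * single (φ z)⁻¹ 1 * e) =
        ((q ^ (L.word z.1).length)⁻¹ * (q ^ (L.word z.1).length)⁻¹) • (hT S L z.1 * y * hT S L z.1⁻¹) := by
    rintro ⟨x, b, v⟩
    have hvB : (v : G) ∈ S.Bbar := S.Ubar_le_Bbar (S.US_mono (fun r hr => hr.1) v.2)
    have hred : Reduced D (L.word x).reverse := by
      rw [Reduced, hR.invCount_reverse, List.length_reverse]
      exact L.word_reduced x
    have hc : S.nW (L.word x) * S.nW (L.word x).reverse ∈ S.Hbar := S.nW_reverse_mem hS hR _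
    have e2 : e * single (φ ⟨x, b, v⟩)⁻¹ 1 * e = e * single (S.nW (L.word x).reverse) 1 * e := by
      have h3 : (φ ⟨x, b, v⟩)⁻¹ = (v : G)⁻¹ * S.nW (L.word x).reverse *
          ((S.nW (L.word x) * S.nW (L.word x).reverse)⁻¹ * (b : G)⁻¹) := by
        simp only [φ]
        group
      rw [h3, he, eB_coset S _ _ _ (inv_mem hvB) (mul_mem (inv_mem (S.Hbar_le_Bbar hc)) (inv_mem b.2))]
    rw [e2, show φ ⟨x, b, v⟩ = (b : G) * S.nW (L.word x) * v from rfl, he, eB_coset S _ _ _ b.2 hvB,
      eB_nW_eB S L hS hR (L.word_reduced x), eB_nW_eB S L hS hR hred, L.c_word, L.c_reverse hR, L.c_word,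
      List.length_reverse, smul_mul_assoc, smul_mul_smul_comm]
  rw [h1, ← (Equiv.ofBijective φ hφ).sum_comp]
  simp only [Equiv.ofBijective_apply, hcell]
  rw [Fintype.sum_sigma, Finset.smul_sum, Finset.smul_sum]
  refine Finset.sum_congr rfl fun x _ => ?_
  dsimp only
  rw [Finset.sum_const, Finset.card_univ, Fintype.card_prod, ← Nat.cast_smul_eq_nsmul ℂ, smul_smul, smul_smul,
    smul_smul, ← Nat.card_eq_fintype_card, ← Nat.card_eq_fintype_card, Sys.card_US_invSet S hR, L.word_reduced x]
  refine congrArg (· • _) ?_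
  have hle : (L.word x).length ≤ D.nroots := by
    rw [← L.word_reduced x]
    exact le_trans (Finset.card_filter_le _ _) (by simp)
  rw [show q ^ D.nroots = q ^ (D.nroots - (L.word x).length) * q ^ (L.word x).length by
    rw [← pow_add, Nat.sub_add_cancel hle], Nat.cast_mul, Nat.cast_pow, ← hq]
  field_simp

theorem span_hT [Fintype W] (hS : Rules D F) (hR : RootTable D len) :
    Submodule.span ℂ (Set.range (hT S L)) = LinearMap.range (model S L hS hR).lin :=
  (Fintype.range_linearCombination ℂ (model S L hS hR).T).symm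

theorem eB_mul_centre (hS : Rules D F) (hR : RootTable D len) (hG : S.Gbar = ⊤) {z : MonoidAlgebra ℂ G}
    (hz : z ∈ (centre : Submodule ℂ (MonoidAlgebra ℂ G))) :
    eB S.Bbar * z ∈ Submodule.span ℂ (Set.range (hT S L)) := by
  have hc := (Subalgebra.mem_center_iff (R := ℂ) (A := MonoidAlgebra ℂ G)).1 hz (eB S.Bbar)
  have e : eB S.Bbar * z = eB S.Bbar * z * eB S.Bbar := by rw [hc, mul_assoc, eB_mul_eB]
  have hall : ∀ y : MonoidAlgebra ℂ G,
      eB S.Bbar * y * eB S.Bbar ∈ Submodule.span ℂ (Set.range (hT S L)) := by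
    intro y
    induction y using MonoidAlgebra.induction_linear with
    | zero => simp
    | add a b ha hb => rw [mul_add, add_mul]; exact add_mem ha hb
    | single g t =>
      rw [show single g t = t • single g (1 : ℂ) by simp, mul_smul_comm, smul_mul_assoc]
      exact Submodule.smul_mem _ _ (eB_single_mem S L hS hR hG g)
  rw [e]
  exact hall z

/-- The elements commuting with the generators, the averaging elements, and the centre agree. -/
theorem model_spec [Fintype W] [DecidableEq W] (hS : Rules D F) (hR : RootTable D len) (hG : S.Gbar = ⊤) :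
    (model S L hS hR).casSpan = (model S L hS hR).cent ∧
      (model S L hS hR).cent = centre.map (LinearMap.mulLeft ℂ (eB S.Bbar)) := by
  classical
  set M := model S L hS hR with hM
  set e := eB S.Bbar with he
  set κ := (Nat.card G : ℂ)⁻¹ * (Nat.card S.Bbar : ℂ) * ((Fintype.card F : ℂ) ^ D.nroots)⁻¹ with hκdef
  have hκ : κ ≠ 0 := mul_ne_zero (mul_ne_zero (inv_ne_zero (Nat.cast_ne_zero.2 Nat.card_pos.ne'))
    (Nat.cast_ne_zero.2 Nat.card_pos.ne')) (inv_ne_zero (pow_ne_zero _ (Nat.cast_ne_zero.2 Fintype.card_ne_zero)))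
  have hrange : LinearMap.range M.lin = Submodule.span ℂ (Set.range (hT S L)) := (span_hT S L hS hR).symm
  have hmid : ∀ y ∈ LinearMap.range M.lin, e * y * e = y := by
    rintro _ ⟨x, rfl⟩
    simp only [Model.lin_apply, Finset.mul_sum, Finset.sum_mul, mul_smul_comm, smul_mul_assoc]
    refine Finset.sum_congr rfl fun w _ => ?_
    show _ • (e * hT S L w * e) = _ • hT S L w
    rw [he, eB_mul_hT S L hS hR, hT_mul_eB]
  have hcas : ∀ a, M.cas a = κ⁻¹ • (e * avg (hT S L a)) := by
    intro a
    rw [he, cas_eq S L hS hR hG _ (by rw [eB_mul_hT S L hS hR, hT_mul_eB]), smul_smul,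
      inv_mul_cancel₀ hκ, one_smul]
    rfl
  have hZle : centre.map (LinearMap.mulLeft ℂ e) ≤ M.cent := by
    rintro _ ⟨z, hz, rfl⟩
    have hc := (Subalgebra.mem_center_iff (R := ℂ) (A := MonoidAlgebra ℂ G)).1 hz
    refine M.mem_cent.2 ⟨?_, fun i => ?_⟩
    · exact (hrange ▸ eB_mul_centre S L hS hR hG hz : e * z ∈ LinearMap.range M.lin)
    · show hT S L (L.c [i]) * (e * z) = e * z * hT S L (L.c [i])
      rw [← mul_assoc, he, hT_mul_eB, hc, hc (eB S.Bbar), mul_assoc z, eB_mul_hT S L hS hR]
  have hcasZ : M.casSpan ≤ centre.map (LinearMap.mulLeft ℂ e) := by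
    refine Submodule.span_le.2 ?_
    rintro _ ⟨a, rfl⟩
    rw [hcas]
    exact Submodule.smul_mem _ _ ⟨_, avg_mem_centre _, rfl⟩
  have hle : M.casSpan ≤ M.cent := hcasZ.trans hZle
  -- multiplication by the average of `eB`
  let f : M.cent →ₗ[ℂ] MonoidAlgebra ℂ G :=
    LinearMap.mulRight ℂ (e * avg e) ∘ₗ M.cent.subtype
  have hf : ∀ y : M.cent, f y = (y : MonoidAlgebra ℂ G) * (e * avg e) := fun y => rfl
  have hfmem : ∀ y : M.cent, f y ∈ M.casSpan := by
    rintro ⟨y, hy⟩
    obtain ⟨⟨x, hx⟩, hcomm⟩ := M.mem_cent.1 hy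
    have hey := hmid y ⟨x, hx⟩
    have heyl : e * y = y := by rw [← hey, ← mul_assoc, ← mul_assoc, he, eB_mul_eB]
    have heyr : y * e = y := by rw [← hey, mul_assoc, he, eB_mul_eB]
    have hcT : ∀ w : W, y * hT S L w = hT S L w * y := by
      intro w
      have hw : M.T w = _ := M.word w
      have h1 : M.T 1 = e := by
        show hT S L 1 = e
        rw [hT, L.word_one hR, Sys.Sw_nil S lreg hR, he]
      show y * M.T w = M.T w * y
      rw [hw, h1, ← mul_assoc, mul_assoc _ e y, heyl]
      have : y * ((L.data.wd w).map fun i => M.T (L.data.s i)).prod =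
          ((L.data.wd w).map fun i => M.T (L.data.s i)).prod * y := by
        induction L.data.wd w with
        | nil => simp
        | cons j l ih => rw [List.map_cons, List.prod_cons, ← mul_assoc, ← hcomm j, mul_assoc, ih, mul_assoc]
      rw [this, mul_assoc, heyr]
    have hgen : ∀ g : G, y * (e * single g 1 * e) = (e * single g 1 * e) * y := by
      intro g
      have hmem := eB_single_mem S L hS hR hG g
      rw [← he] at hmem
      refine Submodule.span_induction ?_ (by simp) ?_ ?_ hmem
      · rintro _ ⟨w, rfl⟩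
        exact hcT w
      · intro a b _ _ ha hb
        rw [mul_add, add_mul, ha, hb]
      · intro c a _ ha
        rw [mul_smul_comm, smul_mul_assoc, ha]
    have e1 : e * avg y = y * (e * avg e) := by
      have hexp : ∀ u : MonoidAlgebra ℂ G, e * u * e = u →
          e * avg u = (Nat.card G : ℂ)⁻¹ • ∑ g : G, (e * single g 1 * e) * u * (e * single g⁻¹ 1 * e) := by
        intro u hu
        have hc : e * avg u = e * avg u * e := by rw [avg_commute u e, mul_assoc, he, eB_mul_eB]
        rw [hc, avg_apply, mul_smul_comm, smul_mul_assoc, Finset.mul_sum, Finset.sum_mul]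
        refine congrArg _ (Finset.sum_congr rfl fun g _ => ?_)
        conv_lhs => rw [← hu]
        simp only [mul_assoc]
      rw [hexp y hey, hexp e (by rw [he, eB_mul_eB, eB_mul_eB]), mul_smul_comm, Finset.mul_sum]
      refine congrArg _ (Finset.sum_congr rfl fun g _ => ?_)
      rw [← hgen g]
      have hee : ∀ z : MonoidAlgebra ℂ G, e * (e * z) = e * z := fun z => by
        rw [← mul_assoc, he, eB_mul_eB]
      simp only [mul_assoc, hee]
    show f ⟨y, hy⟩ ∈ M.casSpan
    rw [hf, ← e1, ← hx, Model.lin_apply, map_sum, Finset.mul_sum]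
    refine Submodule.sum_mem _ fun w _ => ?_
    rw [map_smul, mul_smul_comm]
    refine Submodule.smul_mem _ _ ?_
    have h2 : κ • M.cas w ∈ M.casSpan := Submodule.smul_mem _ _ (Submodule.subset_span ⟨w, rfl⟩)
    rwa [hcas, smul_smul, mul_inv_cancel₀ hκ, one_smul] at h2
  have hinj : Function.Injective f := by
    rw [← LinearMap.ker_eq_bot, eq_bot_iff]
    rintro ⟨y, hy⟩ h
    rw [LinearMap.mem_ker, hf] at h
    obtain ⟨⟨x, hx⟩, -⟩ := M.mem_cent.1 hy
    have hey := hmid y ⟨x, hx⟩
    have heyr : y * e = y := by rw [← hey, mul_assoc, he, eB_mul_eB]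
    rw [← mul_assoc, heyr] at h
    rw [Submodule.mem_bot]
    exact Subtype.ext (eq_zero_of_mul_avg_eB _ (he ▸ heyr) (he ▸ h))
  have hfin : Module.Finite ℂ M.cent := Module.Finite.of_injective M.cent.subtype Subtype.val_injective
  have heq : M.casSpan = M.cent := by
    haveI : FiniteDimensional ℂ M.cent := hfin
    refine Submodule.eq_of_le_of_finrank_le hle ?_
    haveI : FiniteDimensional ℂ M.casSpan := Submodule.finiteDimensional_of_le hle
    exact LinearMap.finrank_le_finrank_of_injective (f := f.codRestrict M.casSpan hfmem)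
      (fun a b h => hinj (congrArg Subtype.val h))
  exact ⟨heq, le_antisymm (heq ▸ hcasZ) hZle⟩

end Cfsg.Agent.HeckeDeform
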