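import Cfsg.Agent.HeckeDeform.Group
import Cfsg.Agent.HeckeDeform.Constituents
import Cfsg.Agent.ChevGrp.WeightCount
import Cfsg.Agent.Chev.WeylGroup

/-!
Constituents of the permutation character on the cosets of a Borel subgroup and the classes of the Weyl
group (owner: helper32).
-/

set_option linter.style.haveILetI false

namespace Cfsg.Agent.HeckeDeform

open MonoidAlgebra Cfsg.Lie Cfsg.Agent.ChevGrp Cfsg.Agent.Block
open Cfsg.Agent.CoxTower (elemOfWord wordAct)
open scoped MatrixGroups

section WeylModel

variable {D : ChevalleyDatum} {len : ℕ → ℕ} {W : Type*} [Group W] [Fintype W] [DecidableEq W]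
  (L : Label D W)

theorem c_eq_prod (w : List (Fin D.rank)) : L.c w = (w.map fun i => L.c [i]).prod := by
  induction w with
  | nil => simpa using L.c_nil
  | cons i w ih => rw [L.c_cons, ih]; simp

/-- The group algebra of the Weyl group. -/
noncomputable def weylModel : Model L.data 1 (MonoidAlgebra ℂ W) where
  T x := single x 1
  indep := by
    rw [Fintype.linearIndependent_iff]
    intro g hg y
    have h := congrArg (fun a : MonoidAlgebra ℂ W => a.coeff y) hg
    simpa [coeff_sum, Finsupp.single_apply] using h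
  one_mul w := by rw [single_mul_single, one_mul, one_mul]
  step_asc i w _ := by rw [single_mul_single, one_mul]
  step_desc i w _ := by rw [sub_self, zero_smul, add_zero, one_smul, single_mul_single, one_mul]
  word v := by
    have h : ∀ l : List (Fin D.rank), (l.map fun i => single (L.c [i]) (1 : ℂ)).prod = single (L.c l) 1 := by
      intro l
      induction l with
      | nil => rw [L.c_nil]; rfl
      | cons i l ih => rw [List.map_cons, List.prod_cons, ih, single_mul_single, one_mul, ← L.c_cons]
    show single v (1 : ℂ) = ((L.word v).map fun i => single (L.c [i]) (1 : ℂ)).prod * single 1 1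
    rw [h, single_mul_single, mul_one, mul_one, L.c_word]

theorem weylModel_spec :
    (weylModel L).casSpan = (weylModel L).cent ∧
      Module.finrank ℂ (weylModel L).cent = Nat.card (ConjClasses W) := by
  classical
  set M := weylModel L
  have hW : (Nat.card W : ℂ) ≠ 0 := Nat.cast_ne_zero.2 Nat.card_pos.ne'
  have hcas : ∀ a, M.cas a = (Nat.card W : ℂ) • avg (single a (1 : ℂ)) := by
    intro a
    rw [avg_apply, smul_smul, mul_inv_cancel₀ hW, one_smul, Model.cas]
    refine Finset.sum_congr rfl fun v _ => ?_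
    simp only [one_pow, one_smul]
    exact mul_assoc _ _ _
  have hall : ∀ y, (∀ i, M.T (L.data.s i) * y = y * M.T (L.data.s i)) →
      ∀ x : W, single x (1 : ℂ) * y = y * single x 1 := by
    intro y hy x
    have key : ∀ l : List (Fin D.rank), single (L.c l) (1 : ℂ) * y = y * single (L.c l) 1 := by
      intro l
      induction l with
      | nil => rw [L.c_nil, ← one_def, one_mul, mul_one]
      | cons i l ih =>
        rw [L.c_cons, ← one_mul (1 : ℂ), ← single_mul_single, mul_assoc, ih, ← mul_assoc,
          show single (L.c [i]) (1 : ℂ) * y = y * single (L.c [i]) 1 from hy i, mul_assoc]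
    rw [← L.c_word x]
    exact key _
  have hspan : M.casSpan = centre := by
    refine le_antisymm (Submodule.span_le.2 ?_) fun y hy => ?_
    · rintro _ ⟨a, rfl⟩
      rw [hcas]
      exact Submodule.smul_mem _ _ (avg_mem_centre _)
    · have hc := (Subalgebra.mem_center_iff (R := ℂ) (A := MonoidAlgebra ℂ W)).1 hy
      have hy2 : avg y = y := by
        rw [avg_apply, Finset.sum_congr rfl fun g _ => show single g (1 : ℂ) * (y * single g⁻¹ 1) = y by
          rw [← mul_assoc, hc, mul_assoc, single_mul_single, mul_inv_cancel, one_mul, ← one_def, mul_one],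
          Finset.sum_const, Finset.card_univ, ← Nat.card_eq_fintype_card, ← Nat.cast_smul_eq_nsmul ℂ, smul_smul,
          inv_mul_cancel₀ hW, one_smul]
      rw [← hy2]
      have hmem : ∀ z : MonoidAlgebra ℂ W, avg z ∈ M.casSpan := by
        intro z
        induction z using MonoidAlgebra.induction_linear with
        | zero => simp
        | add a b ha hb => rw [map_add]; exact add_mem ha hb
        | single g t =>
          rw [show single g t = t • single g (1 : ℂ) by simp, map_smul]
          refine Submodule.smul_mem _ _ ?_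
          have h2 : (Nat.card W : ℂ)⁻¹ • M.cas g ∈ M.casSpan :=
            Submodule.smul_mem _ _ (Submodule.subset_span ⟨g, rfl⟩)
          rwa [hcas, smul_smul, inv_mul_cancel₀ hW, one_smul] at h2
      exact hmem y
  have hrange : LinearMap.range M.lin = ⊤ := by
    rw [eq_top_iff]
    intro z _
    induction z using MonoidAlgebra.induction_linear with
    | zero => simp
    | add a b ha hb => exact add_mem (ha trivial) (hb trivial)
    | single g t => exact ⟨t • Pi.single g 1, by rw [map_smul, M.lin_single]; simp [M, weylModel]⟩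
  have hcent : M.cent = centre := by
    refine le_antisymm (fun y hy => ?_) fun y hy => M.mem_cent.2 ⟨?_, fun i => ?_⟩
    · refine (Subalgebra.mem_center_iff (R := ℂ) (A := MonoidAlgebra ℂ W)).2 fun x => ?_
      induction x using MonoidAlgebra.induction_linear with
      | zero => simp
      | add a b ha hb => simp [add_mul, mul_add, ha, hb]
      | single g t =>
        rw [show single g t = t • single g (1 : ℂ) by simp, smul_mul_assoc, mul_smul_comm,
          hall y (M.mem_cent.1 hy).2 g]
    · exact (hrange ▸ Submodule.mem_top : y ∈ LinearMap.range M.lin)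
    · exact (Subalgebra.mem_center_iff (R := ℂ) (A := MonoidAlgebra ℂ W)).1 hy _
  refine ⟨hspan.trans hcent.symm, ?_⟩
  rw [hcent, centre_eq_span, ← Char.card_irr_eq_card_conjClasses (G := W)]
  haveI : Fintype (IrrCharacter W) := Fintype.ofFinite _
  rw [finrank_span_eq_card, Nat.card_eq_fintype_card]
  rw [Fintype.linearIndependent_iff]
  intro g hg χ
  have h : ∑ χ : IrrCharacter W, g χ • (χ : W → ℂ) = 0 := funext fun x => by
    have := congrArg (fun a : MonoidAlgebra ℂ W => a.coeff x) hg
    simpa [coeff_sum, Finset.sum_apply] using this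
  exact Fintype.linearIndependent_iff.1 (Char.irr_linearIndependent (G := W)) g h χ

end WeylModel

/-- The labelling by the Coxeter group. -/
def coxLabel {D : ChevalleyDatum} {F : Type*} [Field F] {len : ℕ → ℕ}
    {M : CoxeterMatrix (Fin D.rank)} (hS : Rules D F) (hR : RootTable D len)
    (hC : ∀ w : List ℕ, (∀ a ∈ w, a < D.rank) →
      (elemOfWord M w = 1 ↔ ∀ r < D.nroots, wordAct D.reflectRoot w r = r)) : Label D M.Group where
  c := Chev.cElem M
  c_eq := Chev.cElem_eq_iff hC hR
  c_append := CoxeterSystem.wordProd_append _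
  reduced x := by
    obtain ⟨w, rfl⟩ := M.toCoxeterSystem.wordProd_surjective x
    obtain ⟨h, hh, v, hv, -, e⟩ := (glSys hS).exists_reduced hS hR w
    exact ⟨v, hv, (Chev.cElem_eq_iff hC hR v w).2
      (fun r hr => ((glSys hS).act_eq_of_eq hS hR (one_mem _) hh (by rw [one_mul]; exact e) r hr).symm)⟩

theorem Label.finite {D : ChevalleyDatum} {len : ℕ → ℕ} (hR : RootTable D len) {W : Type*} [Group W]
    (L : Label D W) : Finite W :=
  Finite.of_injective (fun x => hR.actF (L.word x)) fun x y h => by
    rw [← L.c_word x, ← L.c_word y, L.c_eq]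
    exact hR.mem_actF_iff.1 h

theorem groupSys_spec {D : ChevalleyDatum} {F : Type*} [Field F] {len : ℕ → ℕ} (hS : Rules D F)
    (hR : RootTable D len) :
    (groupSys hS).Gbar = ⊤ ∧
      (groupSys hS).Bbar = (D.borelSubgroup F).subgroupOf (D.group F) := by
  set S := groupSys hS with hSdef
  have hθ : Function.Injective S.θ := (D.group F).subtype_injective
  have hx : ∀ r < D.nroots, ∀ t : F, S.θ (S.x r t) = (glSys hS).x r t := fun r hr t =>
    Units.ext ((S.θ_x r hr t).trans (val_xGL hS r t).symm)
  have hn : ∀ r < D.nroots, ∀ t : F, S.θ (S.nEl r t) = (glSys hS).nEl r t := fun r hr t => by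
    simp only [Sys.nEl, map_mul, hx r hr, hx _ (hR.neg_lt r hr)]
  have hU : S.Ubar.map S.θ = (glSys hS).Ubar := by
    rw [Sys.Ubar, Sys.Ubar, Sys.US, Sys.US, MonoidHom.map_closure]
    congr 1
    ext g
    constructor
    · rintro ⟨_, ⟨r, hr, t, rfl⟩, rfl⟩
      exact ⟨r, hr, t, hx r hr.1 t⟩
    · rintro ⟨r, hr, t, rfl⟩
      exact ⟨_, ⟨r, hr, t, rfl⟩, hx r hr.1 t⟩
  have hH : S.Hbar.map S.θ = (glSys hS).Hbar := by
    rw [Sys.Hbar, Sys.Hbar, MonoidHom.map_closure]
    congr 1
    ext g
    constructor
    · rintro ⟨_, ⟨i, c, hc, rfl⟩, rfl⟩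
      exact ⟨i, c, hc, by simp only [Sys.hEl, map_mul, hn _ (hR.simple_lt i i.2)]⟩
    · rintro ⟨i, c, hc, rfl⟩
      exact ⟨_, ⟨i, c, hc, rfl⟩, by simp only [Sys.hEl, map_mul, hn _ (hR.simple_lt i i.2)]⟩
  have hG : S.Gbar.map S.θ = (glSys hS).Gbar := by
    rw [Sys.Gbar, Sys.Gbar, MonoidHom.map_closure]
    congr 1
    ext g
    constructor
    · rintro ⟨_, ⟨r, hr, t, rfl⟩, rfl⟩
      exact ⟨r, hr, t, hx r hr t⟩
    · rintro ⟨r, hr, t, rfl⟩
      exact ⟨_, ⟨r, hr, t, rfl⟩, hx r hr t⟩
  have htop : (⊤ : Subgroup ↥(D.group F)).map S.θ = D.group F := by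
    show (⊤ : Subgroup ↥(D.group F)).map (D.group F).subtype = _
    rw [← MonoidHom.range_eq_map, Subgroup.range_subtype]
  refine ⟨Subgroup.map_injective hθ ((hG.trans (group_eq hS).symm).trans htop.symm),
    Subgroup.map_injective hθ ?_⟩
  have hle : D.borelSubgroup F ≤ D.group F := by
    refine le_trans (le_of_eq (borelSubgroup_eq hS hR)) (le_trans ?_ (le_of_eq (group_eq hS).symm))
    rw [(glSys hS).Gbar_eq hR hS]
    exact le_sup_left
  show _ = ((D.borelSubgroup F).subgroupOf (D.group F)).map (D.group F).subtype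
  rw [Subgroup.map_subgroupOf_eq_of_le hle, borelSubgroup_eq hS hR, Sys.Bbar, Sys.Bbar, Subgroup.map_sup, hU, hH]

/-- **Constituents of the Borel permutation character and classes of the Weyl group.** -/
theorem card_borel_constituents {D : ChevalleyDatum} {F : Type*} [Field F] [Fintype F]
    (hall : ∀ (K : Type) [Field K], Rules D K) (hS : Rules D F) {M : CoxeterMatrix (Fin D.rank)}
    (hC : ∀ w : List ℕ, (∀ a ∈ w, a < D.rank) →
      (elemOfWord M w = 1 ↔ ∀ r < D.nroots, wordAct D.reflectRoot w r = r)) :
    Nat.card {χ : Cfsg.IrrCharacter ↥(D.group F) //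
      ∃ φ : ↥(D.group F) → ℂ, Cfsg.IsCharacter ↥(D.group F) φ ∧
        Cfsg.fixedPointCharacter ((D.borelSubgroup F).subgroupOf (D.group F)) = (χ : ↥(D.group F) → ℂ) + φ} =
      Nat.card (ConjClasses M.Group) := by
  classical
  obtain ⟨len, hR⟩ := hS.root
  let L : Label D M.Group := coxLabel hS hR hC
  haveI : Finite M.Group := L.finite hR
  haveI : Fintype M.Group := Fintype.ofFinite _
  haveI : Fintype ↥(D.group F) := Fintype.ofFinite _
  obtain ⟨hG, hB⟩ := groupSys_spec hS hR
  obtain ⟨h1, h2⟩ := model_spec (groupSys hS) L hS hR hG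
  obtain ⟨w1, w2⟩ := weylModel_spec L
  rw [← hB, card_constituents, ← h2, ← w2]
  refine finrank_eq _ _ h1 w1 ((fun p : ℕ => (p : ℂ)) '' {p | p.Prime})
    (Nat.infinite_setOfPred_prime.image Nat.cast_injective.injOn) ?_
  rintro _ ⟨p, hp, rfl⟩
  haveI : Fact p.Prime := ⟨hp⟩
  have hSp := hall (ZMod p)
  haveI : Fintype ↥(D.group (ZMod p)) := Fintype.ofFinite _
  obtain ⟨hGp, -⟩ := groupSys_spec hSp hR
  obtain ⟨k1, -⟩ := model_spec (groupSys hSp) L hSp hR hGp
  have h := (model (groupSys hSp) L hSp hR).Admat_mul_Cmat fun a i => by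
    have hmem : (model (groupSys hSp) L hSp hR).cas a ∈ (model (groupSys hSp) L hSp hR).cent :=
      k1 ▸ Submodule.subset_span ⟨a, rfl⟩
    exact ((model (groupSys hSp) L hSp hR).mem_cent.1 hmem).2 i
  rwa [ZMod.card] at h

end Cfsg.Agent.HeckeDeform
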